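import Cfsg.Agent.Lib.Helper9.Transitivity2
import Cfsg.Prelude.Def_OddOrderLocal

set_option autoImplicit false
open Cfsg Subgroup

namespace Cfsg.Agent.Lib.Helper9

open Cfsg.Agent.Lib.Helper47
open scoped commutatorElement

variable {G : Type*} [Group G] {p : ℕ}

/-- relative form of `le_pPrimeCore_of_invariant`. -/
theorem le_pPrimeCoreOf_of_invariant [Finite G] [Fact p.Prime] (N : Subgroup G)
    (hN : IsPConstrained p N) (hcl : p = 2 → PCl2 p G)
    (E K : Subgroup G) (hEN : E ≤ N) (hKN : K ≤ N) (hE : IsPGroup p E)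
    (hfull : ∀ x ∈ centralizer (E : Set G), IsPGroup p (zpowers x) → x ∈ E)
    (hK : (Nat.card K).Coprime p) (hEK : E ≤ normalizer (K : Set G)) :
    K ≤ pPrimeCoreOf p N := by
  have key := le_pPrimeCore_of_invariant (X := N) hN (fun h => (hcl h).subgroup N)
    (E.subgroupOf N) (K.subgroupOf N) hE.comap_subtype ?_ ?_ ?_
  · have h4 := map_mono (f := N.subtype) key
    rwa [map_subgroupOf_eq_of_le hKN] at h4
  · intro x hx hxp
    rw [mem_subgroupOf]
    apply hfull
    · rw [mem_centralizer_iff]
      intro e he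
      have := (mem_centralizer_iff.mp hx) ⟨e, hEN he⟩ (by simpa [mem_subgroupOf] using he)
      exact congrArg Subtype.val this
    · have h1 := hxp.map N.subtype
      rwa [MonoidHom.map_zpowers] at h1
  · rw [Nat.card_congr (Subgroup.subgroupOfEquivOfLe hKN).toEquiv]
    exact hK
  · intro e he
    rw [mem_subgroupOf] at he
    rw [mem_normalizer_iff]
    intro k
    have := mem_normalizer_iff.mp (hEK he) (k : G)
    simpa [mem_subgroupOf] using this

/-- If the abelian `p`-subgroup `E` contains every `p`-element of `C_G(E)`, then every `p'`-element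
of `C_G(E)` lies in `O_{p'}(C_G(E))`. -/
theorem mem_piCoreOf_centralizer [Finite G] [Fact p.Prime] (E : Subgroup G) (hE : IsPGroup p E)
    (hEc : IsMulCommutative E)
    (hfull : ∀ x ∈ centralizer (E : Set G), IsPGroup p (zpowers x) → x ∈ E)
    {k : G} (hk : k ∈ centralizer (E : Set G)) (hko : (orderOf k).Coprime p) :
    k ∈ piCoreOf (primesNotDvd p) (centralizer (E : Set G)) := by
  have hp : p.Prime := Fact.out
  set C := centralizer (E : Set G) with hC
  have hEC : E ≤ C := by
    intro e he
    rw [hC, mem_centralizer_iff]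
    intro f hf
    exact congrArg Subtype.val (mul_comm' (⟨f, hf⟩ : E) ⟨e, he⟩)
  set E' : Subgroup C := E.subgroupOf C with hE'
  have hE'p : IsPGroup p E' := hE.comap_subtype
  have hcen : ∀ e ∈ E', ∀ c : C, e * c = c * e := by
    intro e he c
    apply Subtype.ext
    exact (mem_centralizer_iff.mp c.2) e he
  have hE'n : E'.Normal := by
    constructor
    intro e he c
    rw [← hcen e he c, mul_inv_cancel_right]
    exact he
  obtain ⟨P, hP⟩ := hE'p.exists_le_sylow
  have hPE : (P : Subgroup C) = E' := by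
    apply le_antisymm _ hP
    intro x hx
    rw [hE', mem_subgroupOf]
    apply hfull _ x.2
    have h1 : IsPGroup p (zpowers x) := P.2.to_le (zpowers_le.mpr hx)
    have h2 := h1.map C.subtype
    rwa [MonoidHom.map_zpowers] at h2
  have hidx : ¬ p ∣ E'.index := hPE ▸ P.not_dvd_index
  obtain ⟨j, hj⟩ := IsPGroup.iff_card.mp hE'p
  have hcop : Nat.Coprime (Nat.card E') E'.index := by
    rw [hj]
    exact Nat.Coprime.pow_left j ((Nat.Prime.coprime_iff_not_dvd hp).mpr hidx)
  obtain ⟨H, hH⟩ := Subgroup.exists_right_complement'_of_coprime hcop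
  have hHcard : Nat.card H = E'.index := hH.symm.index_eq_card.symm
  have hdecomp : ∀ c : C, ∃ e ∈ E', ∃ h ∈ H, c = e * h := by
    intro c
    have h1 : c ∈ E' ⊔ H := hH.sup_eq_top ▸ mem_top c
    obtain ⟨e, he, h, hh, rfl⟩ := Subgroup.mem_sup_of_normal_left.mp h1
    exact ⟨e, he, h, hh, rfl⟩
  have hHn : H.Normal := by
    constructor
    intro x hx c
    obtain ⟨e, he, h, hh, rfl⟩ := hdecomp c
    have h1 : e * h * x * (e * h)⁻¹ = e * (h * x * h⁻¹) * e⁻¹ := by group
    rw [h1, hcen e he, mul_inv_cancel_right]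
    exact mul_mem (mul_mem hh hx) (inv_mem hh)
  have hkH : (⟨k, hk⟩ : C) ∈ H := by
    obtain ⟨e, he, h, hh, hkeh⟩ := hdecomp ⟨k, hk⟩
    have hcomm : Commute e h := hcen e he h
    have h1 : (⟨k, hk⟩ : C) ^ Nat.card H = e ^ Nat.card H := by
      rw [hkeh, hcomm.mul_pow]
      have : h ^ Nat.card H = 1 := by
        have := pow_card_eq_one' (G := H) (x := ⟨h, hh⟩)
        exact congrArg Subtype.val this
      rw [this, mul_one]
    have h2 : (e ^ Nat.card H) ^ p ^ j = 1 := by
      rw [← pow_mul, mul_comm, pow_mul]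
      have : e ^ p ^ j = 1 := by
        have := pow_card_eq_one' (G := E') (x := ⟨e, he⟩)
        rw [hj] at this
        exact congrArg Subtype.val this
      rw [this, one_pow]
    have h3 : (e ^ Nat.card H) ^ orderOf k = 1 := by
      rw [← h1, ← pow_mul, mul_comm, pow_mul]
      have : (⟨k, hk⟩ : C) ^ orderOf k = 1 := by
        apply Subtype.ext
        simp [pow_orderOf_eq_one]
      rw [this, one_pow]
    have h4 : e ^ Nat.card H = 1 :=
      Cfsg.Agent.Lib.Helper54.eq_one_of_pow_of_coprime h2 h3 hko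
    have h5 : e ^ p ^ j = 1 := by
      have := pow_card_eq_one' (G := E') (x := ⟨e, he⟩)
      rw [hj] at this
      exact congrArg Subtype.val this
    have h6 : e = 1 := by
      apply Cfsg.Agent.Lib.Helper54.eq_one_of_pow_of_coprime h5 h4
      rw [hHcard]
      exact ((Nat.Prime.coprime_iff_not_dvd hp).mpr hidx).symm
    rw [hkeh, h6, one_mul]
    exact hh
  have hHle : H ≤ piCore (primesNotDvd p) C := by
    apply le_sSup
    refine ⟨hHn, fun r hr hrd => ⟨hr, fun hrp => ?_⟩⟩
    have : r = p := (Nat.prime_dvd_prime_iff_eq hr hp).mp hrp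
    subst this
    exact hidx (hHcard ▸ hrd)
  exact ⟨⟨k, hk⟩, hHle hkH, rfl⟩

end Cfsg.Agent.Lib.Helper9
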