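/-
Helper library (helper9): Bender–Glauberman Section 12, second half (12.13 – 12.18): basic tools.
Pending rows enter as explicit hypotheses (`H1416a`, `H1416` = S1416, `H1417b` = part (b) of S1417).
-/
import Cfsg.Agent.Lib.Helper24.BG10c
import Cfsg.Agent.Lib.Helper31.BG11Defs
import Cfsg.Agent.Lib.Helper72.Bar
import Cfsg.Agent.S0058
import Cfsg.Agent.S0126

set_option autoImplicit false
set_option linter.unusedSimpArgs false
set_option linter.unusedVariables false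
set_option linter.style.haveILetI false

namespace Cfsg.Agent.Lib.Helper9.BG12

open Cfsg Cfsg.Agent.Lib.Helper34 Cfsg.Agent.Lib.Helper24

universe u

variable {G : Type u} [Group G]

/-- S1416, first part: `C_G(A) ≤ M` for `A ≤ M` elementary abelian of order `p ^ 2`. -/
def H1416a (G : Type u) [Group G] : Prop :=
  ∀ (M : Subgroup G), IsCoatom M → ∀ (p : ℕ) [Fact p.Prime] (A : Subgroup G),
    (A ≤ M ∧ Cfsg.IsElementaryAbelian p A ∧ Nat.card A = p ^ 2) → Subgroup.centralizer (A : Set G) ≤ M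

/-- S1416 (BG Lemma 12.3). -/
def H1416 (G : Type u) [Group G] : Prop :=
  ∀ (M : Subgroup G), IsCoatom M → ∀ (p : ℕ) [Fact p.Prime] (A : Subgroup G),
    (A ≤ M ∧ Cfsg.IsElementaryAbelian p A ∧ Nat.card A = p ^ 2) →
    Subgroup.centralizer (A : Set G) ≤ M ∧
      ((∀ A₀ : Subgroup G, A₀ ≤ A → Nat.card A₀ = p →
          ¬ (Subgroup.normalizer (A₀ : Set G) ≤ M ∧ ∀ L : Subgroup G, IsCoatom L → Subgroup.normalizer (A₀ : Set G) ≤ L → L = M)) →
        p ∈ Cfsg.sigma M ∧ Cfsg.alphaCore M = ⊥ ∧ Group.IsNilpotent (Cfsg.sigmaCore M))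

theorem H1416.a (h : H1416 G) : H1416a G := fun M hM p _ A hA => (h M hM p A hA).1

/-- The part of S1417(b) which is used: the Sylow `p`-subgroups of `M` are abelian for `p ∈ τ₂(M)`. -/
def H1417b (G : Type u) [Group G] : Prop :=
  ∀ (M : Subgroup G), IsCoatom M → ∀ (p : ℕ) [Fact p.Prime], p ∈ Cfsg.tau2 M →
    ∀ P : Sylow p M, IsMulCommutative (P : Subgroup M)

/-- In a cyclic group every subgroup is characteristic, ambient form. -/
theorem normalizer_le_normalizer_of_isCyclic {P Q : Subgroup G} (hcyc : IsCyclic P) (hQP : Q ≤ P) :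
    Subgroup.normalizer (P : Set G) ≤ Subgroup.normalizer (Q : Set G) := by
  obtain ⟨c, hc⟩ := hcyc.exists_generator
  have hstep : ∀ g ∈ Subgroup.normalizer (P : Set G), ∀ h ∈ Q, g * h * g⁻¹ ∈ Q := by
    intro g hg h hh
    have h1 : g * (c : G) * g⁻¹ ∈ P := (Subgroup.mem_normalizer_iff.1 hg _).1 c.2
    obtain ⟨k, hk⟩ := Subgroup.mem_zpowers_iff.1 (hc ⟨_, h1⟩)
    obtain ⟨j, hj⟩ := Subgroup.mem_zpowers_iff.1 (hc ⟨h, hQP hh⟩)
    have hk' : (c : G) ^ k = g * (c : G) * g⁻¹ := by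
      have := congrArg Subtype.val hk
      simpa using this
    have hj' : (c : G) ^ j = h := by
      have := congrArg Subtype.val hj
      simpa using this
    have h2 : g * h * g⁻¹ = h ^ k := by
      rw [← hj', ← conj_zpow, ← hk', ← zpow_mul, ← zpow_mul, mul_comm]
    rw [h2]
    exact Q.zpow_mem hh k
  intro g hg
  rw [Subgroup.mem_normalizer_iff]
  intro h
  refine ⟨hstep g hg h, fun hh => ?_⟩
  have := hstep g⁻¹ (Subgroup.inv_mem _ hg) _ hh
  have h2 : g⁻¹ * (g * h * g⁻¹) * g⁻¹⁻¹ = h := by group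
  rwa [h2] at this

/-- A noncyclic `p`-subgroup (`p` odd) contains an elementary abelian subgroup of order `p ^ 2`. -/
theorem exists_elemAb_sq_of_not_isCyclic [Finite G] {p : ℕ} [Fact p.Prime] (hp2 : p ≠ 2)
    {P : Subgroup G} (hP : IsPGroup p P) (hnc : ¬ IsCyclic P) :
    ∃ A : Subgroup G, A ≤ P ∧ Cfsg.IsElementaryAbelian p A ∧ Nat.card A = p ^ 2 := by
  obtain ⟨E, -, hEe, hEc⟩ := Cfsg.Agent.S0126.result (R := P) hp2 hP hnc
  refine ⟨E.map P.subtype, Subgroup.map_subtype_le _, ⟨⟨⟨?_⟩⟩, ?_⟩, ?_⟩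
  · rintro ⟨_, x, hx, rfl⟩ ⟨_, y, hy, rfl⟩
    have := hEe.1.is_comm.comm ⟨x, hx⟩ ⟨y, hy⟩
    have h2 : x * y = y * x := congrArg Subtype.val this
    apply Subtype.ext
    show P.subtype x * P.subtype y = P.subtype y * P.subtype x
    rw [← map_mul, ← map_mul, h2]
  · rintro _ ⟨x, hx, rfl⟩
    rw [← map_pow, hEe.2 x hx, map_one]
  · rw [Subgroup.card_map_of_injective P.subtype_injective, hEc]

theorem sigma_ne_two (hG : Cfsg.IsMinSimpleOddOrder G) {M : Subgroup G} {p : ℕ}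
    (hp : p ∈ Cfsg.sigma M) : p ≠ 2 := MS_prime_ne_two hG hp.2.1

/-- **BG Corollary 12.10(d)** (third part of S1420), from S1404 and S1416(a). -/
theorem norm_noncyclic_sigma [Finite G] (hG : Cfsg.IsMinSimpleOddOrder G) (hU : UT G)
    (h16 : H1416a G) {M : Subgroup G} (hM : IsCoatom M) {p : ℕ} [Fact p.Prime]
    (hp : p ∈ Cfsg.sigma M) {P : Subgroup G} (hP : IsPGroup p P) (hPM : P ≤ M)
    (hnc : ¬ IsCyclic P) : Subgroup.normalizer (P : Set G) ≤ M := by
  obtain ⟨A, hAP, hAe, hAc⟩ := exists_elemAb_sq_of_not_isCyclic (sigma_ne_two hG hp) hP hnc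
  rw [sigma_normalizer_eq hG hU hM hp hP hPM]
  exact sup_le inf_le_left ((Subgroup.centralizer_le hAP).trans (h16 M hM p A ⟨hAP.trans hPM, hAe, hAc⟩))

/-- If `S` is a Sylow `p`-subgroup of `D`, `D ≤ L` and `N_L(S) ≤ D`, then `S` is a Sylow `p`-subgroup of `L`. -/
theorem isSylowIn_of_normalizer_le [Finite G] {p : ℕ} [Fact p.Prime] {S D L : Subgroup G}
    (hS : IsSylowIn p S D) (hDL : D ≤ L) (hN : L ⊓ Subgroup.normalizer (S : Set G) ≤ D) :
    IsSylowIn p S L := by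
  obtain ⟨T, hT, hST⟩ := exists_isSylowIn_ge (hS.1.trans hDL) hS.2.1
  by_cases h : S = T
  · rw [h]; exact hT
  · exfalso
    obtain ⟨x, hxT, hxN, hxS⟩ :=
      Cfsg.Agent.Lib.Helper24.exists_mem_normalizer_not_mem hT.2.1.isNilpotent (lt_of_le_of_ne hST h)
    have h1 := hS.eq_of_le (R := T ⊓ Subgroup.normalizer (S : Set G))
      (fun y hy => hN ⟨hT.1 hy.1, hy.2⟩) hT.2.1.to_inf_left (le_inf hST Subgroup.le_normalizer)
    apply hxS
    rw [h1]
    exact ⟨hxT, hxN⟩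

/-- **BG Proposition 12.16(a,b,c)** (S1424), ambient form. -/
theorem sigma_subgroup_embedding [Finite G] (hG : Cfsg.IsMinSimpleOddOrder G) (hU : UT G)
    (h16 : H1416a G) {M : Subgroup G} (hM : IsCoatom M) {q : ℕ} [Fact q.Prime]
    (hq : q ∈ Cfsg.sigma M) {X : Subgroup G} (hXq : IsPGroup q X) (hX1 : X ≠ ⊥) (hXM : X ≤ M)
    {Mstar : Subgroup G} (hMs : IsCoatom Mstar) (hne : Mstar ≠ M)
    (hNX : Subgroup.normalizer (X : Set G) ≤ Mstar) {S : Subgroup G}
    (hS : IsSylowIn q S (M ⊓ Mstar)) (hXS : X ≤ S) :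
    (∀ g : G, Mstar ≠ cj g M) ∧ Subgroup.normalizer (S : Set G) ≤ M ∧ IsSylowIn q S Mstar := by
  have hb : Subgroup.normalizer (S : Set G) ≤ M := by
    by_cases hc : IsCyclic S
    · have h1 : Subgroup.normalizer (S : Set G) ≤ Mstar :=
        (normalizer_le_normalizer_of_isCyclic hc hXS).trans hNX
      have h2 : IsSylowIn q S M := isSylowIn_of_normalizer_le hS inf_le_left
        (fun y hy => ⟨hy.1, h1 hy.2⟩)
      exact sigma_normalizer_le hq h2
    · exact norm_noncyclic_sigma hG hU h16 hM hq hS.2.1 (hS.1.trans inf_le_left) hc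
  refine ⟨?_, hb, isSylowIn_of_normalizer_le hS inf_le_right (fun y hy => ⟨hb hy.2, hy.1⟩)⟩
  intro g hg
  have hXs : X ≤ Mstar := Subgroup.le_normalizer.trans hNX
  have h1 : cj g⁻¹ X ≤ M := by rw [← le_cj_iff, ← hg]; exact hXs
  obtain ⟨m, hm, c, hc, hmc⟩ := sigma_conj hG hU hM hq hXq hXM h1
  have hcs : c ∈ Mstar := hNX (centralizer_le_normalizer' X hc)
  have h2 : g = c⁻¹ * m⁻¹ := by
    have : g = (g⁻¹)⁻¹ := (inv_inv g).symm
    rw [this, hmc]; group
  apply hne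
  have h3 : Mstar = cj c⁻¹ M := by
    rw [hg, h2, ← cj_cj, show cj m⁻¹ M = M from map_conj_eq_self_of_mem (M.inv_mem hm)]
  have h4 : cj c Mstar = M := by rw [h3, cj_cj_inv]
  rw [← h4]
  exact (map_conj_eq_self_of_mem hcs).symm

end Cfsg.Agent.Lib.Helper9.BG12
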