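import Mathlib
import Cfsg.Prelude.Def_SolvableStructure
import Cfsg.Agent.Lib.Helper1.Hall
import Cfsg.Agent.Lib.Helper9.Supersolvable2
import Cfsg.Agent.S0007

set_option autoImplicit false

namespace Cfsg.Agent.Lib.Helper9

open Subgroup
open scoped Pointwise

variable {G : Type*} [Group G]

theorem index_conj_smul (g : G) (H : Subgroup G) : (MulAut.conj g • H).index = H.index :=
  Subgroup.index_map_equiv H (MulAut.conj g)

theorem complementSystem_card_coprime [Finite G] {K : Nat.Primes → Subgroup G}
    (hK : Cfsg.IsComplementSystem K) (p : Nat.Primes) : (Nat.card (K p)).Coprime p := by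
  have h1 := Subgroup.card_mul_index (K p)
  rw [hK p] at h1
  have h2 := Nat.ordProj_mul_ordCompl_eq_self (Nat.card G) p
  have h3 : Nat.card (K p) = Nat.card G / (p : ℕ) ^ (Nat.card G).factorization p := by
    apply Nat.eq_of_mul_eq_mul_left (pow_pos p.2.pos ((Nat.card G).factorization p))
    rw [h2, mul_comm, h1]
  rw [h3]
  exact (Nat.coprime_ordCompl p.2 Nat.card_pos.ne').symm

theorem complementSystem_card_eq [Finite G] {K L : Nat.Primes → Subgroup G}
    (hK : Cfsg.IsComplementSystem K) (hL : Cfsg.IsComplementSystem L) (p : Nat.Primes) :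
    Nat.card (K p) = Nat.card (L p) := by
  have h1 := Subgroup.card_mul_index (K p)
  have h2 := Subgroup.card_mul_index (L p)
  rw [hK p] at h1
  rw [hL p] at h2
  exact Nat.eq_of_mul_eq_mul_right (pow_pos p.2.pos _) (h1.trans h2.symm)

theorem complementSystem_conj {K : Nat.Primes → Subgroup G}
    (hK : Cfsg.IsComplementSystem K) (g : G) :
    Cfsg.IsComplementSystem (fun p => MulAut.conj g • K p) := by
  intro p
  change (MulAut.conj g • K p).index = _
  rw [index_conj_smul]; exact hK p

theorem complementSystem_eq_top [Finite G] {K : Nat.Primes → Subgroup G}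
    (hK : Cfsg.IsComplementSystem K) (p : Nat.Primes) (hp : ¬ (p : ℕ) ∣ Nat.card G) : K p = ⊤ := by
  have := hK p
  rw [Nat.factorization_eq_zero_of_not_dvd hp, pow_zero, Subgroup.index_eq_one] at this
  exact this

theorem complementSystem_index_iInf_coprime [Finite G] {L : Nat.Primes → Subgroup G}
    (hL : Cfsg.IsComplementSystem L) (T : Finset Nat.Primes) :
    ∀ q : Nat.Primes, q ∉ T → ((⨅ p ∈ T, L p).index).Coprime q := by
  classical
  induction T using Finset.induction_on with
  | empty => intro q _; simp
  | insert a T ha ih =>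
    intro q hq
    rw [Finset.iInf_insert]
    have hcop : (L a).index.Coprime (⨅ p ∈ T, L p).index := by
      rw [hL a]
      exact Nat.Coprime.pow_left _ (ih a ha).symm
    rw [(Cfsg.Agent.S0007.result _ _ hcop).1]
    apply Nat.Coprime.mul_left
    · rw [hL a]
      apply Nat.Coprime.pow_left
      rw [Nat.coprime_primes a.2 q.2]
      intro h
      exact hq (by rw [← Subtype.ext h]; exact Finset.mem_insert_self _ _)
    · exact ih q (fun h => hq (Finset.mem_insert_of_mem h))

theorem conj_smul_sup_normal_of_mem (N H : Subgroup G) [N.Normal] {n : G} (hn : n ∈ N) :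
    MulAut.conj n • H ⊔ N = H ⊔ N := by
  have h1 : MulAut.conj n • (H ⊔ N) = H ⊔ N :=
    Subgroup.conj_smul_eq_self_of_mem (Subgroup.mem_sup_right hn)
  rw [Subgroup.smul_sup, Subgroup.Normal.conj_smul_eq_self n N] at h1
  exact h1

/-- Relative conjugacy of complement systems: two complement systems with the same image modulo a
normal subgroup `N` are conjugate by an element of `N`. -/
theorem exists_conj_complementSystem [Finite G] [Group.IsSolvable G] (N : Subgroup G) [N.Normal]
    (K L : Nat.Primes → Subgroup G) (hK : Cfsg.IsComplementSystem K)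
    (hL : Cfsg.IsComplementSystem L) (hKL : ∀ p, K p ⊔ N = L p ⊔ N) :
    ∃ n ∈ N, ∀ p, MulAut.conj n • K p = L p := by
  classical
  have step : ∀ T : Finset Nat.Primes, ∃ n ∈ N, ∀ p ∈ T, MulAut.conj n • K p = L p := by
    intro T
    induction T using Finset.induction_on with
    | empty => exact ⟨1, one_mem _, fun p hp => absurd hp (Finset.notMem_empty p)⟩
    | insert q T hq ih =>
      obtain ⟨n, hn, hnT⟩ := ih
      set K' := MulAut.conj n • K q with hK'
      have hK'N : K' ⊔ N = L q ⊔ N := by
        rw [hK', conj_smul_sup_normal_of_mem N _ hn, hKL]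
      have hK'i : K'.index = (q : ℕ) ^ (Nat.card G).factorization q := by
        rw [hK', index_conj_smul]; exact hK q
      have hK'c : (Nat.card K').Coprime q := by
        rw [hK', Cfsg.Agent.Lib.Helper1.card_conj_smul]
        exact complementSystem_card_coprime hK q
      have hK'M : K' ≤ L q ⊔ N := hK'N ▸ le_sup_left
      have hsolv : Group.IsSolvable (L q ⊔ N : Subgroup G) := inferInstance
      obtain ⟨l, hl, hlK⟩ := Cfsg.Agent.Lib.Helper1.hall_conj_rel (L q ⊔ N) hsolv K' (L q) hK'M
        le_sup_left
        (by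
          apply Nat.Coprime.coprime_dvd_right (Subgroup.relIndex_dvd_index_of_le hK'M)
          rw [hK'i]
          exact Nat.Coprime.pow_right _ hK'c)
        (by
          rw [hK', Cfsg.Agent.Lib.Helper1.card_conj_smul]
          exact (complementSystem_card_eq hK hL q).symm)
      rw [← hK'N, sup_comm] at hl
      have hl' : l ∈ ((N ⊔ K' : Subgroup G) : Set G) := hl
      rw [Subgroup.normal_mul] at hl'
      obtain ⟨n1, hn1, k, hk, rfl⟩ := Set.mem_mul.mp hl'
      rw [Cfsg.Agent.Lib.Helper1.conj_mul_smul, Subgroup.conj_smul_eq_self_of_mem hk] at hlK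
      -- decompose `n1`
      have hcop : ((⨅ p ∈ T, L p).subgroupOf N).index.Coprime (K'.subgroupOf N).index := by
        have h1 : (⨅ p ∈ T, L p).relIndex N ∣ (⨅ p ∈ T, L p).index :=
          ⟨_, (relIndex_mul_index_sup _ N).symm⟩
        have h2 : K'.relIndex N ∣ K'.index := ⟨_, (relIndex_mul_index_sup _ N).symm⟩
        apply Nat.Coprime.coprime_dvd_left h1
        apply Nat.Coprime.coprime_dvd_right h2
        rw [hK'i]
        exact Nat.Coprime.pow_right _ (complementSystem_index_iInf_coprime hL T q hq)
      obtain ⟨t, ht, k', hk', hdec⟩ := (Cfsg.Agent.S0007.result _ _ hcop).2 ⟨n1, hn1⟩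
      have hdec' : n1 = (t : G) * (k' : G) := congrArg Subtype.val hdec
      rw [hdec', Cfsg.Agent.Lib.Helper1.conj_mul_smul,
        Subgroup.conj_smul_eq_self_of_mem (Subgroup.mem_subgroupOf.mp hk')] at hlK
      refine ⟨t * n, mul_mem t.2 hn, ?_⟩
      intro p hp
      rw [Cfsg.Agent.Lib.Helper1.conj_mul_smul]
      rcases Finset.mem_insert.mp hp with rfl | hpT
      · exact hlK
      · rw [hnT p hpT]
        apply Subgroup.conj_smul_eq_self_of_mem
        have := Subgroup.mem_subgroupOf.mp ht
        rw [Subgroup.mem_iInf] at this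
        have := this p
        rw [Subgroup.mem_iInf] at this
        exact this hpT
  obtain ⟨n, hn, hnT⟩ := step ((Nat.card G).primeFactors.subtype Nat.Prime)
  refine ⟨n, hn, fun p => ?_⟩
  by_cases hp : (p : ℕ) ∣ Nat.card G
  · apply hnT
    apply Finset.mem_subtype.mpr
    rw [Nat.mem_primeFactors]
    exact ⟨p.2, hp, Nat.card_pos.ne'⟩
  · rw [complementSystem_eq_top hK p hp, complementSystem_eq_top hL p hp]
    exact Subgroup.Normal.conj_smul_eq_self n ⊤

end Cfsg.Agent.Lib.Helper9
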