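import Mathlib
import Cfsg.Prelude.Def_SolvableStructure
import Cfsg.Agent.Lib.Helper9.ComplementSystem

set_option autoImplicit false

namespace Cfsg.Agent.Lib.Helper9

open Subgroup
open scoped Pointwise

variable {G : Type*} [Group G]

theorem complementSystem_map [Finite G] {K : Nat.Primes → Subgroup G}
    (hK : Cfsg.IsComplementSystem K) (N : Subgroup G) [N.Normal] :
    Cfsg.IsComplementSystem (fun p => (K p).map (QuotientGroup.mk' N)) := by
  intro p
  set X := (K p).map (QuotientGroup.mk' N) with hX
  change X.index = _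
  have h1 : X.index ∣ (p : ℕ) ^ (Nat.card G).factorization p := by
    rw [← hK p]; exact Subgroup.index_map_dvd _ (QuotientGroup.mk'_surjective N)
  obtain ⟨b, -, hb⟩ := (Nat.dvd_prime_pow p.2).mp h1
  have h2 : (Nat.card X).Coprime p :=
    Nat.Coprime.coprime_dvd_left (Subgroup.card_map_dvd _ _) (complementSystem_card_coprime hK p)
  have h3 := Subgroup.card_mul_index X
  rw [hb] at h3
  rw [hb, ← h3, Nat.factorization_mul Nat.card_pos.ne' (pow_ne_zero _ p.2.ne_zero)]
  have h4 : (Nat.card X).factorization p = 0 := by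
    apply Nat.factorization_eq_zero_of_not_dvd
    intro hd
    exact p.2.one_lt.ne' (Nat.eq_one_of_dvd_coprimes h2 hd dvd_rfl)
  simp [h4, p.2.factorization_self]

theorem mem_systemNormalizer {K : Nat.Primes → Subgroup G} {x : G} :
    x ∈ Cfsg.systemNormalizer K ↔ ∀ p, MulAut.conj x • K p = K p := by
  unfold Cfsg.systemNormalizer
  rw [Subgroup.mem_iInf]
  exact forall_congr' fun p => Cfsg.Agent.Lib.Helper1.mem_normalizer_iff_conj_smul

theorem systemNormalizer_map [Finite G] [Group.IsSolvable G] {K : Nat.Primes → Subgroup G}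
    (hK : Cfsg.IsComplementSystem K) (N : Subgroup G) [N.Normal] :
    Cfsg.systemNormalizer (fun p => (K p).map (QuotientGroup.mk' N)) =
      (Cfsg.systemNormalizer K).map (QuotientGroup.mk' N) := by
  apply le_antisymm
  · intro y hy
    obtain ⟨x, rfl⟩ := QuotientGroup.mk'_surjective N y
    rw [mem_systemNormalizer] at hy
    have hKL : ∀ p, K p ⊔ N = MulAut.conj x • K p ⊔ N := by
      intro p
      have h1 := hy p
      rw [← Cfsg.Agent.Lib.Helper1.map_conj_smul] at h1
      have h2 := congrArg (Subgroup.comap (QuotientGroup.mk' N)) h1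
      rw [Subgroup.comap_map_eq, Subgroup.comap_map_eq, QuotientGroup.ker_mk'] at h2
      exact h2.symm
    obtain ⟨n, hn, hnK⟩ := exists_conj_complementSystem N K (fun p => MulAut.conj x • K p) hK
      (complementSystem_conj hK x) hKL
    refine ⟨n⁻¹ * x, ?_, ?_⟩
    · change n⁻¹ * x ∈ Cfsg.systemNormalizer K
      rw [mem_systemNormalizer]
      intro p
      rw [Cfsg.Agent.Lib.Helper1.conj_mul_smul, Cfsg.Agent.Lib.Helper1.conj_inv_smul_eq_iff]
      exact (hnK p).symm
    · rw [map_mul, map_inv]
      have : QuotientGroup.mk' N n = 1 := by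
        rw [QuotientGroup.mk'_apply, QuotientGroup.eq_one_iff]; exact hn
      rw [this, inv_one, one_mul]
  · rintro _ ⟨x, hx, rfl⟩
    rw [mem_systemNormalizer]
    intro p
    rw [← Cfsg.Agent.Lib.Helper1.map_conj_smul, (mem_systemNormalizer.mp hx) p]

/-- The normal closure of a system normalizer is the whole group. -/
theorem normalClosure_systemNormalizer [Finite G] [Group.IsSolvable G]
    {K : Nat.Primes → Subgroup G} (hK : Cfsg.IsComplementSystem K) :
    Subgroup.normalClosure ((Cfsg.systemNormalizer K : Subgroup G) : Set G) = ⊤ := by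
  set R := Subgroup.normalClosure ((Cfsg.systemNormalizer K : Subgroup G) : Set G) with hR
  by_contra hne
  have hnt : Nontrivial (G ⧸ R) := by
    rw [← Finite.one_lt_card_iff_nontrivial, ← Subgroup.index_eq_card]
    exact Subgroup.one_lt_index_of_ne_top hne
  have hlt := Group.IsSolvable.commutator_lt_top_of_nontrivial (G ⧸ R)
  set M := (commutator (G ⧸ R)).comap (QuotientGroup.mk' R) with hM
  have hMn : M.Normal := inferInstance
  have hRM : R ≤ M := by
    intro r hr
    rw [hM, Subgroup.mem_comap]
    have : QuotientGroup.mk' R r = 1 := by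
      rw [QuotientGroup.mk'_apply, QuotientGroup.eq_one_iff]; exact hr
    rw [this]; exact one_mem _
  have hMne : M ≠ ⊤ := by
    intro h
    apply hlt.ne
    rw [← Subgroup.map_comap_eq_self_of_surjective (QuotientGroup.mk'_surjective R)
      (commutator (G ⧸ R)), ← hM, h, Subgroup.map_top_of_surjective _
      (QuotientGroup.mk'_surjective R)]
  have hcomm : commutator G ≤ M := by
    rw [hM, ← Subgroup.map_le_iff_le_comap, commutator_def, Subgroup.map_commutator,
      commutator_def]
    exact Subgroup.commutator_mono le_top le_top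
  have hab : IsMulCommutative (G ⧸ M) :=
    Subgroup.Normal.quotient_commutative_iff_commutator_le.mpr hcomm
  have h1 := systemNormalizer_map hK M
  have h2 : (Cfsg.systemNormalizer K).map (QuotientGroup.mk' M) = ⊥ := by
    rw [Subgroup.map_eq_bot_iff, QuotientGroup.ker_mk']
    exact (Subgroup.le_normalClosure).trans hRM
  have h3 : Cfsg.systemNormalizer (fun p => (K p).map (QuotientGroup.mk' M)) = ⊤ := by
    rw [eq_top_iff]
    intro y _
    rw [mem_systemNormalizer]
    intro p
    ext z
    rw [Cfsg.Agent.Lib.Helper1.mem_conj_smul_iff]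
    have : y⁻¹ * z * y = z := by
      rw [mul_assoc, hab.is_comm.comm z y, ← mul_assoc, inv_mul_cancel, one_mul]
    rw [this]
  rw [h2, h3] at h1
  have h4 : Subsingleton (G ⧸ M) := by
    rw [← Subgroup.subsingleton_iff]
    exact subsingleton_of_bot_eq_top h1.symm
  apply hMne
  rw [← Subgroup.index_eq_one, Subgroup.index_eq_card]
  exact Nat.card_of_subsingleton 1

end Cfsg.Agent.Lib.Helper9
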