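import Mathlib

set_option autoImplicit false

namespace Cfsg.Agent.Lib.Helper9

open Subgroup
open scoped Pointwise

/-- A minimal normal subgroup. -/
def IsMinNormal {G : Type*} [Group G] (M : Subgroup G) : Prop :=
  M.Normal ∧ M ≠ ⊥ ∧ ∀ L : Subgroup G, L.Normal → L ≤ M → L ≠ ⊥ → L = M

theorem exists_isMinNormal_le {G : Type*} [Group G] [Finite G] (K : Subgroup G) (hK : K.Normal)
    (hne : K ≠ ⊥) : ∃ M, IsMinNormal M ∧ M ≤ K := by
  obtain ⟨M, hM⟩ := exists_minimal_of_wellFoundedLT
    (fun M : Subgroup G => M.Normal ∧ M ≠ ⊥ ∧ M ≤ K) ⟨K, hK, hne, le_rfl⟩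
  exact ⟨M, ⟨hM.1.1, hM.1.2.1, fun L hL hLM hLne =>
    le_antisymm hLM (hM.2 ⟨hL, hLne, hLM.trans hM.1.2.2⟩ hLM)⟩, hM.1.2.2⟩

theorem IsMinNormal.map_equiv {G G' : Type*} [Group G] [Group G'] (e : G ≃* G') {M : Subgroup G}
    (h : IsMinNormal M) : IsMinNormal (M.map e.toMonoidHom) := by
  obtain ⟨hn, hne, hmin⟩ := h
  refine ⟨hn.map _ e.surjective, ?_, ?_⟩
  · rw [Ne, Subgroup.map_eq_bot_iff_of_injective _ e.injective]; exact hne
  · intro L hL hLM hLne
    have h1 : L.comap e.toMonoidHom = M := by
      apply hmin _ (hL.comap _)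
      · intro x hx
        have : e.toMonoidHom x ∈ M.map e.toMonoidHom := hLM hx
        exact (Subgroup.mem_map_iff_mem e.injective).mp this
      · intro hbot
        apply hLne
        rw [← Subgroup.map_comap_eq_self_of_surjective (f := e.toMonoidHom) e.surjective L, hbot,
          Subgroup.map_bot]
    rw [← h1, Subgroup.map_comap_eq_self_of_surjective (f := e.toMonoidHom) e.surjective L]

theorem card_lt_of_lt_top {G : Type*} [Group G] [Finite G] {N : Subgroup G} (h : N < ⊤) :
    Nat.card N < Nat.card G := by
  have h1 := Subgroup.card_mul_index N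
  have h2 : N.index ≠ 1 := fun h' => h.ne (Subgroup.index_eq_one.mp h')
  have h3 : N.index ≠ 0 := Subgroup.index_ne_zero_of_finite
  have h4 : 0 < Nat.card N := Nat.card_pos
  rw [← h1]
  exact lt_mul_of_one_lt_right h4 (by omega)

/-- A minimal normal subgroup normalizes every subnormal subgroup (finite groups). -/
theorem minNormal_le_normalizer {G : Type*} [Group G] [Finite G] {H M : Subgroup G}
    (hH : H.IsSubnormal) (hM : IsMinNormal M) : M ≤ normalizer (H : Set G) := by
  induction hn : Nat.card G using Nat.strong_induction_on generalizing G with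
  | _ n ih =>
    by_cases hHtop : H = ⊤
    · subst hHtop
      rw [Subgroup.normalizer_eq_top]; exact le_top
    obtain ⟨N, hNn, hHN, hNlt⟩ := hH.exists_normal_and_le_and_lt_top_of_ne hHtop
    obtain ⟨hMn, hMne, hMmin⟩ := hM
    by_cases hMN : M ⊓ N = ⊥
    · -- `M` centralizes `N`
      have hdis : Disjoint M N := disjoint_iff.mpr hMN
      rw [Subgroup.le_normalizer_iff]
      intro m hm k hk
      have := Subgroup.commute_of_normal_of_disjoint M N hMn hNn hdis m k hm (hHN hk)
      have h2 : m * k * m⁻¹ = k := by rw [this.eq]; group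
      rw [h2]; exact hk
    · have hMleN : M ≤ N := by
        have := hMmin (M ⊓ N) inferInstance inf_le_left hMN
        rw [← this]; exact inf_le_right
      let ι := {X : Subgroup N // IsMinNormal X ∧ X.map N.subtype ≤ M}
      let J : Subgroup G := ⨆ X : ι, X.1.map N.subtype
      have hJM : J ≤ M := iSup_le fun X => X.2.2
      have hJne : J ≠ ⊥ := by
        have h1 : (M.subgroupOf N) ≠ ⊥ := by
          rw [Ne, Subgroup.subgroupOf_eq_bot, disjoint_iff]; exact hMN
        obtain ⟨X, hX, hXM⟩ := exists_isMinNormal_le (M.subgroupOf N) inferInstance h1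
        have hXM' : X.map N.subtype ≤ M := by
          calc X.map N.subtype ≤ (M.subgroupOf N).map N.subtype := Subgroup.map_mono hXM
            _ = M ⊓ N := Subgroup.subgroupOf_map_subtype _ _
            _ ≤ M := inf_le_left
        intro hbot
        have h2 : X.map N.subtype ≤ J := le_iSup (fun X : ι => X.1.map N.subtype) ⟨X, hX, hXM'⟩
        rw [hbot, le_bot_iff, Subgroup.map_eq_bot_iff_of_injective _ N.subtype_injective] at h2
        exact hX.2.1 h2
      have hJn : J.Normal := by
        constructor
        intro x hx g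
        have h1 : J.map (MulAut.conj g).toMonoidHom ≤ J := by
          rw [Subgroup.map_iSup]
          apply iSup_le
          intro X
          have hcomp : (MulAut.conj g).toMonoidHom.comp N.subtype =
              N.subtype.comp (MulAut.conjNormal (H := N) g).toMonoidHom := by
            ext x
            simp [MulAut.conjNormal_apply]
          have h2 : (X.1.map N.subtype).map (MulAut.conj g).toMonoidHom =
              (X.1.map (MulAut.conjNormal (H := N) g).toMonoidHom).map N.subtype := by
            rw [Subgroup.map_map, Subgroup.map_map, hcomp]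
          rw [h2]
          refine le_iSup (fun X : ι => X.1.map N.subtype)
            ⟨X.1.map (MulAut.conjNormal (H := N) g).toMonoidHom, X.2.1.map_equiv _, ?_⟩
          rw [← h2]
          rintro _ ⟨y, hy, rfl⟩
          exact hMn.conj_mem y (X.2.2 hy) g
        exact h1 ⟨x, hx, rfl⟩
      have hJeq : J = M := hMmin J hJn hJM hJne
      rw [← hJeq]
      apply iSup_le
      intro X
      have h1 : X.1 ≤ normalizer ((H.subgroupOf N : Subgroup N) : Set N) :=
        ih _ (hn ▸ card_lt_of_lt_top hNlt) hH.subgroupOf X.2.1 rfl
      calc X.1.map N.subtype ≤ (normalizer ((H.subgroupOf N : Subgroup N) : Set N)).map N.subtype :=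
            Subgroup.map_mono h1
        _ ≤ normalizer (((H.subgroupOf N).map N.subtype : Subgroup G) : Set G) :=
            Subgroup.le_normalizer_map _
        _ = normalizer (H : Set G) := by rw [Subgroup.map_subgroupOf_eq_of_le hHN]

/-- **Wielandt**: the join of two subnormal subgroups of a finite group is subnormal. -/
theorem isSubnormal_sup {G : Type*} [Group G] [Finite G] {A B : Subgroup G}
    (hA : A.IsSubnormal) (hB : B.IsSubnormal) : (A ⊔ B).IsSubnormal := by
  induction hn : Nat.card G using Nat.strong_induction_on generalizing G with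
  | _ n ih =>
    rcases subsingleton_or_nontrivial G with hsub | hnt
    · rw [Subsingleton.elim (A ⊔ B) ⊤]; exact .top
    · obtain ⟨M, hM, -⟩ := exists_isMinNormal_le (⊤ : Subgroup G) inferInstance top_ne_bot
      have hMn : M.Normal := hM.1
      have hlt : Nat.card (G ⧸ M) < n := by
        rw [← hn, Subgroup.card_eq_card_quotient_mul_card_subgroup M]
        apply lt_mul_of_one_lt_right Nat.card_pos
        have h1 : Nat.card M ≠ 1 := fun h => hM.2.1 (Subgroup.card_eq_one.mp h)
        have h2 : 0 < Nat.card M := Nat.card_pos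
        omega
      have h1 := ih _ hlt (hA.quotient (K := M)) (hB.quotient (K := M)) rfl
      have h2 := h1.comap (QuotientGroup.mk' M)
      rw [← Subgroup.map_sup, Subgroup.comap_map_eq, QuotientGroup.ker_mk'] at h2
      refine .step _ _ le_sup_left h2 (Subgroup.normal_subgroupOf_of_le_normalizer ?_)
      have hMA := minNormal_le_normalizer hA hM
      have hMB := minNormal_le_normalizer hB hM
      apply sup_le Subgroup.le_normalizer
      intro m hm
      rw [Subgroup.mem_normalizer_iff_map_conj_eq, Subgroup.map_sup,
        Subgroup.mem_normalizer_iff_map_conj_eq.mp (hMA hm),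
        Subgroup.mem_normalizer_iff_map_conj_eq.mp (hMB hm)]

/-- The join of any family of subnormal subgroups of a finite group is subnormal. -/
theorem isSubnormal_sSup {G : Type*} [Group G] [Finite G] (S : Set (Subgroup G))
    (hS : ∀ U ∈ S, U.IsSubnormal) : (sSup S).IsSubnormal := by
  have hfin : S.Finite := Set.toFinite S
  induction S, hfin using Set.Finite.induction_on with
  | empty => rw [sSup_empty]; exact .bot
  | @insert a s _ _ ih =>
    rw [sSup_insert]
    exact isSubnormal_sup (hS a (Set.mem_insert _ _))
      (ih fun U hU => hS U (Set.mem_insert_of_mem _ hU))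

end Cfsg.Agent.Lib.Helper9
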