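import Mathlib
import Cfsg.Agent.Lib.Helper9.Subnormal

set_option autoImplicit false

namespace Cfsg.Agent.Lib.Helper9

open Subgroup
open scoped Pointwise

theorem conj_mem_conj_smul {G : Type*} [Group G] {U : Subgroup G} {u : G} (hu : u ∈ U) (x : G) :
    x * u * x⁻¹ ∈ MulAut.conj x • U := by
  have := Subgroup.smul_mem_pointwise_smul u (MulAut.conj x) U hu
  rwa [MulAut.smul_def, MulAut.conj_apply] at this

theorem exists_of_mem_conj_smul {G : Type*} [Group G] {U : Subgroup G} {y x : G}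
    (hy : y ∈ MulAut.conj x • U) : ∃ u ∈ U, y = x * u * x⁻¹ := by
  obtain ⟨u, hu, rfl⟩ := Subgroup.mem_smul_pointwise_iff_exists _ _ _ |>.mp hy
  exact ⟨u, hu, by rw [MulAut.smul_def, MulAut.conj_apply]⟩

/-- If `S` is a conjugation-closed family of subnormal subgroups and `S₀ ⊂ S`, some member of
`S` outside `S₀` normalizes `⟨S₀⟩`. -/
theorem exists_normalizing_member {G : Type*} [Group G] [Finite G] (S S₀ : Set (Subgroup G))
    (hS : ∀ U ∈ S, U.IsSubnormal) (hconj : ∀ U ∈ S, ∀ g : G, MulAut.conj g • U ∈ S)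
    (h₀ : S₀ ⊂ S) :
    ∃ X ∈ S, X ∉ S₀ ∧ X ≤ Subgroup.normalizer ((sSup S₀ : Subgroup G) : Set G) := by
  set H : Subgroup G := sSup S₀ with hH
  have hHsn : H.IsSubnormal := isSubnormal_sSup S₀ fun U hU => hS U (h₀.subset hU)
  obtain ⟨X₀, hX₀S, hX₀⟩ := Set.exists_of_ssubset h₀
  by_cases hall : ∀ U ∈ S, U ≤ H
  · exact ⟨X₀, hX₀S, hX₀, (hall X₀ hX₀S).trans Subgroup.le_normalizer⟩
  push Not at hall
  obtain ⟨X₁, hX₁S, hX₁⟩ := hall
  obtain ⟨n, f, hmono, hnorm, hf0, hfn⟩ := hHsn.exists_chain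
  have key : ∀ i : ℕ, (∃ X ∈ S, X ≤ f i ∧ ¬ X ≤ H) →
      ∃ X ∈ S, ¬ X ≤ H ∧ X ≤ Subgroup.normalizer (H : Set G) := by
    intro i
    induction i with
    | zero =>
      rintro ⟨X, _, hXf, hXH⟩
      rw [hf0] at hXf
      exact absurd hXf hXH
    | succ i ih =>
      rintro ⟨X, hXS, hXf, hXH⟩
      by_cases hXN : X ≤ Subgroup.normalizer (H : Set G)
      · exact ⟨X, hXS, hXH, hXN⟩
      · apply ih
        by_contra hcon
        push Not at hcon
        apply hXN
        rw [Subgroup.le_normalizer_iff]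
        intro x hx k hk
        have hle : H ≤ H.comap (MulAut.conj x).toMonoidHom := by
          rw [hH]
          apply sSup_le
          intro U hU u hu
          rw [← hH, Subgroup.mem_comap]
          change x * u * x⁻¹ ∈ H
          have hUS : U ∈ S := h₀.subset hU
          have hUH : U ≤ H := le_sSup hU
          have h1 : MulAut.conj x • U ≤ f i := by
            intro y hy
            obtain ⟨u', hu', rfl⟩ := exists_of_mem_conj_smul hy
            have h2 : f (i + 1) ≤ Subgroup.normalizer (f i : Set G) :=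
              (Subgroup.normal_subgroupOf_iff_le_normalizer (hmono (Nat.le_succ i))).mp (hnorm i)
            have h3 : u' ∈ f i := hmono (Nat.zero_le i) (hf0 ▸ hUH hu')
            exact (Subgroup.le_normalizer_iff.mp h2) x (hXf hx) u' h3
          exact hcon _ (hconj U hUS x) h1 (conj_mem_conj_smul hu x)
        exact hle hk
  obtain ⟨X, hXS, hXH, hXN⟩ := key n ⟨X₁, hX₁S, hfn ▸ le_top, hX₁⟩
  exact ⟨X, hXS, fun h => hXH (le_sSup h), hXN⟩

/-- Relative version inside a subgroup `M`. -/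
theorem exists_normalizing_member_rel {G : Type*} [Group G] [Finite G] (M : Subgroup G)
    (S S₀ : Set (Subgroup G))
    (hS : ∀ U ∈ S, U ≤ M ∧ (U.subgroupOf M).IsSubnormal)
    (hconj : ∀ U ∈ S, ∀ g ∈ M, MulAut.conj g • U ∈ S) (h₀ : S₀ ⊂ S) :
    ∃ X ∈ S, X ∉ S₀ ∧ X ≤ Subgroup.normalizer ((sSup S₀ : Subgroup G) : Set G) := by
  let S' : Set (Subgroup M) := {U | U.map M.subtype ∈ S}
  let S₀' : Set (Subgroup M) := {U | U.map M.subtype ∈ S₀}
  have hback : ∀ U : Subgroup M, (U.map M.subtype).subgroupOf M = U := fun U =>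
    Subgroup.comap_map_eq_self_of_injective M.subtype_injective U
  have h1 : ∀ U ∈ S', U.IsSubnormal := by
    intro U hU
    have := (hS _ hU).2
    rwa [hback] at this
  have h2 : ∀ U ∈ S', ∀ g : M, MulAut.conj g • U ∈ S' := by
    intro U hU g
    have h3 : (MulAut.conj g • U).map M.subtype = MulAut.conj (g : G) • (U.map M.subtype) := by
      ext y
      constructor
      · rintro ⟨z, hz, rfl⟩
        obtain ⟨u, hu, rfl⟩ := exists_of_mem_conj_smul hz
        exact conj_mem_conj_smul (Subgroup.mem_map_of_mem M.subtype hu) (g : G)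
      · intro hy
        obtain ⟨u, ⟨u', hu', rfl⟩, rfl⟩ := exists_of_mem_conj_smul hy
        exact ⟨g * u' * g⁻¹, conj_mem_conj_smul hu' g, rfl⟩
    change (MulAut.conj g • U).map M.subtype ∈ S
    rw [h3]
    exact hconj _ hU g g.2
  have h3 : S₀' ⊂ S' := by
    refine ⟨fun U hU => h₀.subset hU, ?_⟩
    obtain ⟨X₀, hX₀S, hX₀⟩ := Set.exists_of_ssubset h₀
    intro hsub
    have h4 : (X₀.subgroupOf M).map M.subtype = X₀ :=
      Subgroup.map_subgroupOf_eq_of_le (hS X₀ hX₀S).1
    have h5 : X₀.subgroupOf M ∈ S' := by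
      change (X₀.subgroupOf M).map M.subtype ∈ S
      rw [h4]; exact hX₀S
    have h6 : (X₀.subgroupOf M).map M.subtype ∈ S₀ := hsub h5
    rw [h4] at h6
    exact hX₀ h6
  obtain ⟨X, hXS, hX₀, hXN⟩ := exists_normalizing_member S' S₀' h1 h2 h3
  refine ⟨X.map M.subtype, hXS, hX₀, ?_⟩
  have h7 : (sSup S₀' : Subgroup M).map M.subtype = sSup S₀ := by
    apply le_antisymm
    · rw [Subgroup.map_le_iff_le_comap]
      apply sSup_le
      intro U hU
      rw [← Subgroup.map_le_iff_le_comap]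
      exact le_sSup hU
    · apply sSup_le
      intro U hU
      have h8 : (U.subgroupOf M).map M.subtype = U :=
        Subgroup.map_subgroupOf_eq_of_le (hS U (h₀.subset hU)).1
      rw [← h8]
      apply Subgroup.map_mono
      apply le_sSup
      change (U.subgroupOf M).map M.subtype ∈ S₀
      rw [h8]; exact hU
  rw [← h7]
  exact (Subgroup.map_mono hXN).trans (Subgroup.le_normalizer_map _)

end Cfsg.Agent.Lib.Helper9
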