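import Mathlib
import Cfsg.Prelude.Def_SolvableStructure
import Cfsg.Agent.Lib.Helper9.Supersolvable5

set_option autoImplicit false

namespace Cfsg.Agent.Lib.Helper9

open Subgroup

/-- `DChain b K`: there is a chain of normal subgroups from `K` up to `⊤` with prime indices that
are non-increasing along the chain and all bounded by `b`. -/
inductive DChain {G : Type*} [Group G] : ℕ → Subgroup G → Prop
  | top (b : ℕ) : DChain b ⊤
  | step (b : ℕ) (K L : Subgroup G) : K.Normal → L.Normal → K ≤ L → (K.relIndex L).Prime →
      K.relIndex L ≤ b → DChain (K.relIndex L) L → DChain b K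

theorem DChain.comap {G : Type*} [Group G] (N : Subgroup G) [N.Normal] {b : ℕ}
    {K : Subgroup (G ⧸ N)} (h : DChain b K) : DChain b (K.comap (QuotientGroup.mk' N)) := by
  induction h with
  | top b => rw [Subgroup.comap_top]; exact DChain.top b
  | step b K L hK hL hle hp hb _ ih =>
    have hrel : (K.comap (QuotientGroup.mk' N)).relIndex (L.comap (QuotientGroup.mk' N)) =
        K.relIndex L := by
      rw [Subgroup.relIndex_comap,
        Subgroup.map_comap_eq_self_of_surjective (QuotientGroup.mk'_surjective N)]
    refine DChain.step b _ (L.comap (QuotientGroup.mk' N)) (hK.comap _) (hL.comap _)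
      (Subgroup.comap_mono hle) (hrel ▸ hp) (hrel ▸ hb) (hrel ▸ ih)

theorem DChain.exists_fin {G : Type*} [Group G] {b : ℕ} {K : Subgroup G} (h : DChain b K)
    (hKn : K.Normal) :
    ∃ (n : ℕ) (H : Fin (n + 1) → Subgroup G), H 0 = K ∧ H (Fin.last n) = ⊤ ∧ (∀ i, (H i).Normal) ∧
      (∀ i : Fin n, H i.castSucc ≤ H i.succ ∧ ((H i.castSucc).relIndex (H i.succ)).Prime) ∧
      (∀ i : Fin n, (H i.castSucc).relIndex (H i.succ) ≤ b) ∧
      ∀ i j : Fin n, i ≤ j → (H j.castSucc).relIndex (H j.succ) ≤
        (H i.castSucc).relIndex (H i.succ) := by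
  induction h with
  | top b =>
    exact ⟨0, fun _ => ⊤, rfl, rfl, fun _ => inferInstance, fun i => i.elim0, fun i => i.elim0,
      fun i => i.elim0⟩
  | step b K L hK hL hle hp hb _ ih =>
    obtain ⟨n, H, h0, hn, hnorm, hstep, hbd, hanti⟩ := ih hL
    have e0 : ∀ (H' : Fin (n + 2) → Subgroup G), H' = Fin.cons K H →
        (H' (Fin.castSucc 0)).relIndex (H' (Fin.succ 0)) = K.relIndex L := by
      intro H' hH'
      rw [hH', Fin.castSucc_zero, Fin.cons_zero, Fin.cons_succ, h0]
    have es : ∀ (H' : Fin (n + 2) → Subgroup G), H' = Fin.cons K H → ∀ j : Fin n,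
        (H' (Fin.castSucc j.succ)).relIndex (H' (Fin.succ j.succ)) =
          (H j.castSucc).relIndex (H j.succ) := by
      intro H' hH' j
      rw [hH', Fin.castSucc_succ, Fin.cons_succ, Fin.cons_succ]
    refine ⟨n + 1, Fin.cons K H, Fin.cons_zero _ _, ?_, ?_, ?_, ?_, ?_⟩
    · rw [← Fin.succ_last, Fin.cons_succ, hn]
    · intro i
      induction i using Fin.cases with
      | zero => rw [Fin.cons_zero]; exact hK
      | succ i => rw [Fin.cons_succ]; exact hnorm i
    · intro i
      induction i using Fin.cases with
      | zero =>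
        rw [e0 _ rfl]
        refine ⟨?_, hp⟩
        rw [Fin.castSucc_zero, Fin.cons_zero, Fin.cons_succ, h0]; exact hle
      | succ i =>
        rw [es _ rfl]
        refine ⟨?_, (hstep i).2⟩
        rw [Fin.castSucc_succ, Fin.cons_succ, Fin.cons_succ]; exact (hstep i).1
    · intro i
      induction i using Fin.cases with
      | zero => rw [e0 _ rfl]; exact hb
      | succ i => rw [es _ rfl]; exact (hbd i).trans hb
    · intro i j hij
      induction j using Fin.cases with
      | zero =>
        have : i = 0 := Fin.le_zero_iff.mp hij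
        rw [this]
      | succ j =>
        induction i using Fin.cases with
        | zero => rw [e0 _ rfl, es _ rfl]; exact hbd j
        | succ i =>
          rw [es _ rfl, es _ rfl]
          exact hanti i j (Fin.succ_le_succ_iff.mp hij)

theorem dChain_of_isSupersolvable {G : Type*} [Group G] [Finite G] (hG : Cfsg.IsSupersolvable G)
    (b : ℕ) (hb : ∀ q : ℕ, q.Prime → q ∣ Nat.card G → q ≤ b) : DChain b (⊥ : Subgroup G) := by
  induction hn : Nat.card G using Nat.strong_induction_on generalizing G b with
  | _ n ih =>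
    rcases subsingleton_or_nontrivial G with hsub | hnt
    · rw [Subsingleton.elim (⊥ : Subgroup G) ⊤]; exact DChain.top b
    · have hne1 : Nat.card G ≠ 1 := by
        intro h1
        have := (Nat.card_eq_one_iff_unique.mp h1).1
        exact not_subsingleton G this
      obtain ⟨p, hp, hdvd, hmax⟩ := exists_largest_prime_dvd Nat.card_pos.ne' hne1
      have : Fact p.Prime := ⟨hp⟩
      obtain ⟨N, hNn, hNc⟩ := (zProp_of_isSupersolvable hG).exists_normal_card_eq p hdvd hmax
      have hcard := Subgroup.card_eq_card_quotient_mul_card_subgroup N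
      have hlt : Nat.card (G ⧸ N) < n := by
        rw [← hn, hcard, hNc]
        exact lt_mul_of_one_lt_right Nat.card_pos hp.one_lt
      have h1 := ih _ hlt (isSupersolvable_quotient hG N) p
        (fun q hq hqd => hmax q hq (hqd.trans ⟨_, hcard⟩)) rfl
      have h2 := h1.comap N
      rw [MonoidHom.comap_bot, QuotientGroup.ker_mk'] at h2
      have hrel : (⊥ : Subgroup G).relIndex N = p := by rw [Subgroup.relIndex_bot_left, hNc]
      exact DChain.step b ⊥ N inferInstance hNn bot_le (hrel ▸ hp) (hrel ▸ hb p hp hdvd)
        (hrel ▸ h2)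

end Cfsg.Agent.Lib.Helper9
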