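import Cfsg.Agent.Lib.Helper9.Transitivity3
import Cfsg.Agent.Lib.Helper9.PConstrained2
import Cfsg.Agent.Lib.Helper1.CoprimeSylow
import Cfsg.Agent.Lib.Helper62.Local
import Cfsg.Agent.S0058
import Cfsg.Agent.S1324

set_option autoImplicit false
open Cfsg Subgroup

namespace Cfsg.Agent.Lib.Helper9

open Cfsg.Agent.Lib.Helper47
open scoped commutatorElement

variable {G : Type*} [Group G] {p : ℕ}

theorem le_normalizer_inf {A X Y : Subgroup G} (hX : A ≤ normalizer (X : Set G))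
    (hY : A ≤ normalizer (Y : Set G)) : A ≤ normalizer ((X ⊓ Y : Subgroup G) : Set G) := by
  intro g hg
  apply mem_normalizer_of_cj_eq
  rw [cj_inf, cj_eq_self_of_mem_normalizer (hX hg), cj_eq_self_of_mem_normalizer (hY hg)]

theorem le_normalizer_sup {A X Y : Subgroup G} (hX : A ≤ normalizer (X : Set G))
    (hY : A ≤ normalizer (Y : Set G)) : A ≤ normalizer ((X ⊔ Y : Subgroup G) : Set G) := by
  intro g hg
  apply mem_normalizer_of_cj_eq
  rw [cj_sup, cj_eq_self_of_mem_normalizer (hX hg), cj_eq_self_of_mem_normalizer (hY hg)]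

theorem mem_invSubgroups_iff [Finite G] {E Y : Subgroup G} {q : ℕ} [Fact q.Prime] :
    Y ∈ invSubgroups ⊤ E {q} ↔ IsPGroup q Y ∧ E ≤ normalizer (Y : Set G) := by
  have hq : q.Prime := Fact.out
  constructor
  · rintro ⟨-, h2, h3⟩
    refine ⟨?_, h3⟩
    have := Nat.eq_prime_pow_of_unique_prime_dvd (n := Nat.card Y) (p := q) Nat.card_pos.ne'
      (fun {d} hd hdvd => h2 d hd hdvd)
    exact IsPGroup.of_card this
  · rintro ⟨h1, h2⟩
    refine ⟨le_top, fun r hr hrd => ?_, h2⟩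
    obtain ⟨k, hk⟩ := IsPGroup.iff_card.mp h1
    rw [hk] at hrd
    exact (Nat.prime_dvd_prime_iff_eq hr hq).mp (hr.dvd_of_dvd_pow hrd)

theorem cj_mem_invSubgroups [Finite G] {E Y : Subgroup G} {q : ℕ} [Fact q.Prime] {k : G}
    (hk : k ∈ centralizer (E : Set G)) (hY : Y ∈ invSubgroups ⊤ E {q}) :
    cj k Y ∈ invSubgroups ⊤ E {q} := by
  rw [mem_invSubgroups_iff] at hY ⊢
  refine ⟨IsPGroup_cj hY.1 k, ?_⟩
  rw [← cj_normalizer]
  intro e he
  have h1 : k * e * k⁻¹ = e := by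
    rw [← (mem_centralizer_iff.mp hk) e he, mul_inv_cancel_right]
  rw [← h1]
  exact conj_mem_cj (hY.2 he)

theorem cj_mem_maxInvSubgroups [Finite G] {E Q : Subgroup G} {q : ℕ} [Fact q.Prime] {k : G}
    (hk : k ∈ centralizer (E : Set G)) (hQ : Q ∈ maxInvSubgroups ⊤ E {q}) :
    cj k Q ∈ maxInvSubgroups ⊤ E {q} := by
  refine ⟨cj_mem_invSubgroups hk hQ.1, fun R hR hle => ?_⟩
  have h1 := hQ.2 (cj k⁻¹ R) (cj_mem_invSubgroups (inv_mem hk) hR) (cj_le_iff.mp hle)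
  rw [← h1, cj_cj_inv]

theorem exists_le_maxInvSubgroups [Finite G] {E Y : Subgroup G} {q : ℕ}
    (hY : Y ∈ invSubgroups ⊤ E {q}) : ∃ Q ∈ maxInvSubgroups ⊤ E {q}, Y ≤ Q := by
  obtain ⟨Q, hYQ, hQ⟩ := (Set.toFinite (invSubgroups ⊤ E {q})).exists_le_maximal hY
  exact ⟨Q, ⟨hQ.prop, fun R hR hle => le_antisymm (hQ.le_of_ge hR hle) hle⟩, hYQ⟩

theorem coprime_card_of_isPGroup_ne [Finite G] [Fact p.Prime] {q : ℕ} [Fact q.Prime] (hqp : q ≠ p)
    {Y : Subgroup G} (hY : IsPGroup q Y) : (Nat.card Y).Coprime p := by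
  obtain ⟨k, hk⟩ := IsPGroup.iff_card.mp hY
  rw [hk]
  exact Nat.Coprime.pow_left k ((Nat.coprime_primes Fact.out Fact.out).mpr hqp)

/-- An elementary abelian `p`-group of rank at least three acting on two `p'`-groups `R₁, R₂`, neither
contained in `D`: some nonidentity element has fixed points outside `D` in both. -/
theorem exists_common_element [Finite G] [Fact p.Prime] (E1 : Subgroup G)
    (hE1 : IsElementaryAbelian p E1) (hcard : p ^ 2 < Nat.card E1)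
    (R1 R2 D : Subgroup G) (h1 : (Nat.card R1).Coprime p) (h2 : (Nat.card R2).Coprime p)
    (hE1R1 : E1 ≤ normalizer (R1 : Set G)) (hE1R2 : E1 ≤ normalizer (R2 : Set G))
    (hD1 : ¬ R1 ≤ D) (hD2 : ¬ R2 ≤ D) :
    ∃ a ∈ E1, a ≠ 1 ∧ ¬ (R1 ⊓ centralizer {a} ≤ D) ∧ ¬ (R2 ⊓ centralizer {a} ≤ D) := by
  have hp : p.Prime := Fact.out
  have hnd : ¬ p ∣ Nat.card R1 := fun h =>
    hp.one_lt.ne' (Nat.Coprime.eq_one_of_dvd h1.symm h)
  have key := Cfsg.Agent.S1324.result p E1 R1 hE1 hcard.le hnd hE1R1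
  obtain ⟨B, hB⟩ : ∃ B : {B : Subgroup G // B ≤ E1 ∧ B.relIndex E1 ≤ p},
      ¬ (R1 ⊓ centralizer ((B : Subgroup G) : Set G) ≤ D) := by
    by_contra hcon
    push Not at hcon
    apply hD1
    rw [key]
    exact iSup_le hcon
  obtain ⟨⟨B, hBE, hBi⟩, hB⟩ := (⟨B, hB⟩ : ∃ B : {B : Subgroup G // B ≤ E1 ∧ B.relIndex E1 ≤ p},
      ¬ (R1 ⊓ centralizer ((B : Subgroup G) : Set G) ≤ D))
  simp only at hB
  have hBcard : p < Nat.card B := by
    have h3 := Cfsg.Agent.Lib.Helper1.relIndex_mul_card hBE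
    have h4 : Nat.card E1 ≤ p * Nat.card B := by
      rw [← h3]; exact Nat.mul_le_mul_right _ hBi
    by_contra hle
    push Not at hle
    have : p * Nat.card B ≤ p * p := Nat.mul_le_mul_left _ hle
    nlinarith
  have hBcomm : IsMulCommutative B := by
    refine ⟨⟨fun a b => Subtype.ext ?_⟩⟩
    have := hE1.1.is_comm.comm ⟨a, hBE a.2⟩ ⟨b, hBE b.2⟩
    have h3 : (a : G) * b = b * a := congrArg (Subtype.val (p := fun x => x ∈ E1)) this
    exact h3
  have hBnc : ¬ IsCyclic B := by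
    intro hcyc
    obtain ⟨g, hg⟩ := hcyc.exists_generator
    have h3 : orderOf g = Nat.card B := orderOf_eq_card_of_forall_mem_zpowers hg
    have h4 : g ^ p = 1 := Subtype.ext (hE1.2 g (hBE g.2))
    have h5 := Nat.le_of_dvd hp.pos (orderOf_dvd_of_pow_eq_one h4)
    omega
  have hBp : IsPGroup p B := by
    intro b
    exact ⟨1, by rw [pow_one]; exact Subtype.ext (hE1.2 b (hBE b.2))⟩
  have key2 := Cfsg.Agent.S0058.result B R2 hBnc (hBE.trans hE1R2)
    (coprime_card_of_isPGroup hBp h2).symm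
  obtain ⟨a, ha, haD⟩ : ∃ a ∈ {a : G | a ∈ B ∧ a ≠ 1}, ¬ (R2 ⊓ centralizer {a} ≤ D) := by
    by_contra hcon
    push Not at hcon
    apply hD2
    rw [← key2]
    exact iSup₂_le hcon
  refine ⟨a, hBE ha.1, ha.2, fun hle => hB (le_trans ?_ hle), haD⟩
  exact inf_le_inf_left _ (centralizer_le (by simpa using ha.1))

end Cfsg.Agent.Lib.Helper9
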