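import Cfsg.Agent.Lib.Helper9.Transitivity4

set_option autoImplicit false
open Cfsg Subgroup

namespace Cfsg.Agent.Lib.Helper9

open Cfsg.Agent.Lib.Helper47
open scoped commutatorElement

variable {G : Type*} [Group G] {p : ℕ}

/-- **Thompson transitivity theorem.** -/
theorem thompson_transitivity [Finite G] [Fact p.Prime]
    (hloc : ∀ T : Subgroup G, IsPGroup p T → T ≠ ⊥ →
      IsPConstrained p ↥(normalizer (T : Set G)))
    (hcl : p = 2 → PCl2 p G)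
    (E : Subgroup G) (hEp : IsPGroup p E) (hEc : IsMulCommutative E) (hE3 : ¬ PRankLE p 2 E)
    (hEfull : ∀ x ∈ centralizer (E : Set G), IsPGroup p (zpowers x) → x ∈ E)
    (q : ℕ) [Fact q.Prime] (hqp : q ≠ p) :
    ∀ (m : ℕ), ∀ Q₁ ∈ maxInvSubgroups ⊤ E {q}, ∀ Q₂ ∈ maxInvSubgroups ⊤ E {q},
      Nat.card G - Nat.card (Q₁ ⊓ Q₂ : Subgroup G) = m →
      ∃ k ∈ piCoreOf (primesNotDvd p) (centralizer (E : Set G)), Q₂ = cj k Q₁ := by
  have hp : p.Prime := Fact.out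
  set H0 := piCoreOf (primesNotDvd p) (centralizer (E : Set G)) with hH0
  have hH0C : H0 ≤ centralizer (E : Set G) := map_subtype_le _
  have hEsol : Group.IsSolvable E := isSolvable_of_isPGroup hEp
  have hEcomm : ∀ e ∈ E, ∀ f ∈ E, e * f = f * e := by
    intro e he f hf
    exact congrArg Subtype.val (mul_comm' (⟨e, he⟩ : E) ⟨f, hf⟩)
  -- the elementary abelian subgroup of rank three
  obtain ⟨E1, hE1E, hE1, hE1card⟩ : ∃ E1 : Subgroup G, E1 ≤ E ∧ IsElementaryAbelian p E1 ∧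
      p ^ 2 < Nat.card E1 := by
    unfold PRankLE at hE3
    push Not at hE3
    obtain ⟨A, hA1, hA2, hA3⟩ := hE3
    refine ⟨A.map E.subtype, map_subtype_le _, ⟨inferInstance, ?_⟩, ?_⟩
    · rintro _ ⟨a, ha, rfl⟩
      have := hA2 a ha
      simpa using congrArg Subtype.val this
    · rwa [Subgroup.card_map_of_injective E.subtype_injective]
  intro m
  induction m using Nat.strong_induction_on with
  | _ m ih =>
  intro Q₁ hQ₁ Q₂ hQ₂ hm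
  by_cases hne : Q₁ = Q₂
  · exact ⟨1, one_mem _, by rw [cj_one, hne]⟩
  obtain ⟨hQ₁q, hEQ₁⟩ := mem_invSubgroups_iff.mp hQ₁.1
  obtain ⟨hQ₂q, hEQ₂⟩ := mem_invSubgroups_iff.mp hQ₂.1
  set D := Q₁ ⊓ Q₂ with hD
  have hED : E ≤ normalizer (D : Set G) := le_normalizer_inf hEQ₁ hEQ₂
  have hDq : IsPGroup q D := hQ₁q.to_le inf_le_left
  have hD1 : D < Q₁ := by
    refine lt_of_le_of_ne inf_le_left fun h => hne ?_
    have : Q₁ ≤ Q₂ := h ▸ (inf_le_right : D ≤ Q₂)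
    exact (hQ₁.2 Q₂ hQ₂.1 this).symm
  have hD2 : D < Q₂ := by
    refine lt_of_le_of_ne inf_le_right fun h => hne ?_
    have : Q₂ ≤ Q₁ := h ▸ (inf_le_left : D ≤ Q₁)
    exact hQ₂.2 Q₁ hQ₁.1 this
  set N := normalizer (D : Set G) with hN
  have hEN : E ≤ normalizer (N : Set G) := hED.trans le_normalizer
  set R₁ := Q₁ ⊓ N with hR₁
  set R₂ := Q₂ ⊓ N with hR₂
  have hER₁ : E ≤ normalizer (R₁ : Set G) := le_normalizer_inf hEQ₁ hEN
  have hER₂ : E ≤ normalizer (R₂ : Set G) := le_normalizer_inf hEQ₂ hEN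
  have hR₁D : ¬ R₁ ≤ D := by
    obtain ⟨x, hx1, hx2, hx3⟩ := Cfsg.Agent.Lib.Helper62.exists_mem_normalizer_not_mem hQ₁q hD1
    exact fun h => hx3 (h (mem_inf.mpr ⟨hx1, hx2⟩))
  have hR₂D : ¬ R₂ ≤ D := by
    obtain ⟨x, hx1, hx2, hx3⟩ := Cfsg.Agent.Lib.Helper62.exists_mem_normalizer_not_mem hQ₂q hD2
    exact fun h => hx3 (h (mem_inf.mpr ⟨hx1, hx2⟩))
  have hR₁q : IsPGroup q R₁ := hQ₁q.to_le inf_le_left
  have hR₂q : IsPGroup q R₂ := hQ₂q.to_le inf_le_left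
  obtain ⟨a, haE1, ha1, haR₁, haR₂⟩ := exists_common_element E1 hE1 hE1card R₁ R₂ D
    (coprime_card_of_isPGroup_ne hqp hR₁q) (coprime_card_of_isPGroup_ne hqp hR₂q)
    (hE1E.trans hER₁) (hE1E.trans hER₂) hR₁D hR₂D
  have haE : a ∈ E := hE1E haE1
  set T := zpowers a with hT
  have hTp : IsPGroup p T := hEp.to_le (zpowers_le.mpr haE)
  have hTne : T ≠ ⊥ := fun h => ha1 (zpowers_eq_bot.mp h)
  set Na := normalizer (T : Set G) with hNa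
  have hNac : IsPConstrained p Na := hloc T hTp hTne
  set Ca := centralizer ({a} : Set G) with hCa
  have hCaT : Ca = centralizer (T : Set G) := by
    ext g; exact mem_centralizer_zpowers_iff.symm
  have hECa : E ≤ Ca := by
    intro e he
    rw [hCa, mem_centralizer_singleton_iff]
    exact hEcomm e he a haE
  have hCaNa : Ca ≤ Na := hCaT ▸ centralizer_le_normalizer _
  have hENa : E ≤ Na := hECa.trans hCaNa
  have hECa' : E ≤ normalizer (Ca : Set G) := hECa.trans le_normalizer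
  set Ka := pPrimeCoreOf p Na with hKa
  have hEKa : E ≤ normalizer (Ka : Set G) := hENa.trans (le_normalizer_pPrimeCoreOf Na)
  set U₁ := R₁ ⊓ Ca with hU₁
  set U₂ := R₂ ⊓ Ca with hU₂
  have hEU₁ : E ≤ normalizer (U₁ : Set G) := le_normalizer_inf hER₁ hECa'
  have hEU₂ : E ≤ normalizer (U₂ : Set G) := le_normalizer_inf hER₂ hECa'
  have hU₁Ka : U₁ ≤ Ka := le_pPrimeCoreOf_of_invariant Na hNac hcl E U₁ hENa
    (inf_le_right.trans hCaNa) hEp hEfull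
    (coprime_card_of_isPGroup_ne hqp (hR₁q.to_le inf_le_left)) hEU₁
  have hU₂Ka : U₂ ≤ Ka := le_pPrimeCoreOf_of_invariant Na hNac hcl E U₂ hENa
    (inf_le_right.trans hCaNa) hEp hEfull
    (coprime_card_of_isPGroup_ne hqp (hR₂q.to_le inf_le_left)) hEU₂
  set Y := (Ka ⊓ N) ⊔ D with hY
  have hEY : E ≤ normalizer (Y : Set G) := le_normalizer_sup (le_normalizer_inf hEKa hEN) hED
  have hYc : (Nat.card Y).Coprime p := by
    have h1 : Nat.card Y ∣ Nat.card (Ka ⊓ N : Subgroup G) * Nat.card D :=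
      Cfsg.Agent.Lib.Helper1.card_sup_dvd inf_le_right
    refine Nat.Coprime.of_dvd_left h1 (Nat.Coprime.mul_left ?_ (coprime_card_of_isPGroup_ne hqp hDq))
    exact Nat.Coprime.of_dvd_left (Subgroup.card_dvd_of_le inf_le_left)
      (card_pPrimeCoreOf_coprime Na)
  have hcopEY : (Nat.card E).Coprime (Nat.card Y) := (coprime_card_of_isPGroup hEp hYc).symm
  have hDR₁ : D ≤ R₁ := le_inf inf_le_left le_normalizer
  have hDR₂ : D ≤ R₂ := le_inf inf_le_right le_normalizer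
  set V₁ := U₁ ⊔ D with hV₁
  set V₂ := U₂ ⊔ D with hV₂
  have hV₁R : V₁ ≤ R₁ := sup_le inf_le_left hDR₁
  have hV₂R : V₂ ≤ R₂ := sup_le inf_le_left hDR₂
  have hV₁Y : V₁ ≤ Y := sup_le_sup_right (le_inf hU₁Ka (inf_le_left.trans inf_le_right)) D
  have hV₂Y : V₂ ≤ Y := sup_le_sup_right (le_inf hU₂Ka (inf_le_left.trans inf_le_right)) D
  have hDV₁ : D < V₁ := lt_of_le_of_ne le_sup_right fun h => haR₁ (h ▸ le_sup_left)
  have hDV₂ : D < V₂ := lt_of_le_of_ne le_sup_right fun h => haR₂ (h ▸ le_sup_left)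
  obtain ⟨S₁, hVS₁, hS₁Y, hS₁q, hS₁i, hES₁⟩ :=
    Cfsg.Agent.Lib.Helper1.invariant_pSubgroup_le_invariant_sylow E Y hEY hcopEY (Or.inl hEsol) q V₁
      hV₁Y (hR₁q.to_le hV₁R) (le_normalizer_sup hEU₁ hED)
  obtain ⟨S₂, hVS₂, hS₂Y, hS₂q, hS₂i, hES₂⟩ :=
    Cfsg.Agent.Lib.Helper1.invariant_pSubgroup_le_invariant_sylow E Y hEY hcopEY (Or.inl hEsol) q V₂
      hV₂Y (hR₂q.to_le hV₂R) (le_normalizer_sup hEU₂ hED)
  obtain ⟨c, hc, hcS⟩ := Cfsg.Agent.Lib.Helper1.invariant_sylow_conj E Y hEY hcopEY (Or.inl hEsol) q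
    S₁ S₂ hS₁Y hS₁q hS₁i hS₂Y hS₂q hS₂i hES₁ hES₂
  have hcS' : cj c S₁ = S₂ := hcS
  obtain ⟨hcY, hcE⟩ := mem_inf.mp hc
  have hcH0 : c ∈ H0 := mem_piCoreOf_centralizer E hEp hEc hEfull hcE
    (Nat.Coprime.of_dvd_left (Subgroup.orderOf_dvd_natCard Y hcY) hYc)
  obtain ⟨Q₃, hQ₃, hS₁Q₃⟩ := exists_le_maxInvSubgroups (mem_invSubgroups_iff.mpr ⟨hS₁q, hES₁⟩)
  have hcard : ∀ X : Subgroup G, Nat.card X ≤ Nat.card G := fun X => Subgroup.card_le_card_group X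
  -- `Q₁ ~ Q₃`
  obtain ⟨k₁, hk₁, hk₁Q⟩ : ∃ k ∈ H0, Q₃ = cj k Q₁ := by
    have h1 : V₁ ≤ Q₁ ⊓ Q₃ := le_inf (hV₁R.trans inf_le_left) (hVS₁.trans hS₁Q₃)
    have h2 : Nat.card D < Nat.card (Q₁ ⊓ Q₃ : Subgroup G) :=
      lt_of_lt_of_le (Cfsg.Agent.Lib.Helper1.card_lt_of_lt hDV₁) (Subgroup.card_le_of_le h1)
    have h3 := hcard (Q₁ ⊓ Q₃)
    exact ih _ (by omega) Q₁ hQ₁ Q₃ hQ₃ rfl
  -- `Q₃ᶜ ~ Q₂`
  obtain ⟨k₂, hk₂, hk₂Q⟩ : ∃ k ∈ H0, Q₂ = cj k (cj c Q₃) := by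
    have h1 : V₂ ≤ cj c Q₃ ⊓ Q₂ :=
      le_inf (hVS₂.trans (hcS' ▸ cj_mono hS₁Q₃)) (hV₂R.trans inf_le_left)
    have h2 : Nat.card D < Nat.card (cj c Q₃ ⊓ Q₂ : Subgroup G) :=
      lt_of_lt_of_le (Cfsg.Agent.Lib.Helper1.card_lt_of_lt hDV₂) (Subgroup.card_le_of_le h1)
    have h3 := hcard (cj c Q₃ ⊓ Q₂)
    exact ih _ (by omega) (cj c Q₃) (cj_mem_maxInvSubgroups hcE hQ₃) Q₂ hQ₂ rfl
  refine ⟨k₂ * c * k₁, mul_mem (mul_mem hk₂ hcH0) hk₁, ?_⟩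
  rw [hk₂Q, hk₁Q, cj_mul, cj_mul]

end Cfsg.Agent.Lib.Helper9
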